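import Mathlib
import Cfsg.Agent.Lib.Helper85.USim.Defs
import Cfsg.Agent.Lib.Helper40.Subf6
import Cfsg.Agent.Lib.Helper45.HermBasic
import Cfsg.Agent.S2588

/-!
# USIM (S5982): package [14] `pSpecial`
-/

set_option autoImplicit false
open scoped MatrixGroups

namespace Cfsg.Agent.Lib.Helper66.USim

open Cfsg.Agent.Lib.Helper85.USim Cfsg.Agent.Lib.Helper40 Cfsg.Agent.Lib.Helper40.Subf5 Polynomial

universe u

/-- a scalar multiple of a unitary matrix is a similarity. -/
theorem smul_mem_HU {F : Type u} [Field F] [Fintype F] {n q₀ : ℕ} (Y B : GL (Fin n) F)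
    (hB : B ∈ Cfsg.GU n F q₀) (c : F) (hc : c ≠ 0)
    (hY : (Y : Matrix (Fin n) (Fin n) F) = c • (B : Matrix (Fin n) (Fin n) F)) :
    Y ∈ HU n F q₀ := by
  have hB' : ∀ u v, Cfsg.hermForm n F q₀ ((B : Matrix (Fin n) (Fin n) F).mulVec u)
      ((B : Matrix (Fin n) (Fin n) F).mulVec v) = Cfsg.hermForm n F q₀ u v := hB
  refine ⟨Units.mk0 (c ^ (q₀ + 1)) (pow_ne_zero _ hc), fun u v => ?_⟩
  rw [hY, Matrix.smul_mulVec, Matrix.smul_mulVec, Cfsg.Agent.Lib.Helper45.herm_smul_left,
    Cfsg.Agent.Lib.Helper45.herm_smul_right, hB' u v, Units.val_mk0, ← mul_assoc, ← pow_succ']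

/-- two diagonal matrices of `r`-th roots of unity with the same multiplicities are conjugate. -/
theorem diag_conj {F : Type u} [Field F] {n r : ℕ} [Fact r.Prime] {ω : F}
    (hω : IsPrimitiveRoot ω r) (a b : Fin n → ZMod r)
    (hab : ∀ u : ZMod r, Nat.card {j // a j = u} = Nat.card {j // b j = u}) :
    ∃ P : GL (Fin n) F, (P : Matrix (Fin n) (Fin n) F) * Matrix.diagonal (fun j => ω ^ (a j).val) =
      Matrix.diagonal (fun j => ω ^ (b j).val) * (P : Matrix (Fin n) (Fin n) F) := by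
  classical
  have hr : r.Prime := Fact.out
  have hω1 := hω.pow_eq_one
  obtain ⟨ψ, hψ⟩ : ∃ ψ : ZMod r → F, ∀ u, ψ u = ω ^ u.val := ⟨fun u => ω ^ u.val, fun _ => rfl⟩
  have hψinj : Function.Injective ψ := fun u v h => psi_inj hω (by rw [← hψ, ← hψ]; exact h)
  obtain ⟨S, hSdef⟩ : ∃ S : Finset F, S = Finset.univ.image ψ := ⟨_, rfl⟩
  have hS : S = nthRootsFinset r (1 : F) := by
    apply Finset.eq_of_subset_of_card_le
    · intro ζ hζ
      rw [hSdef] at hζ
      obtain ⟨u, -, rfl⟩ := Finset.mem_image.1 hζ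
      rw [mem_nthRootsFinset hr.pos, hψ, ← pow_mul, mul_comm, pow_mul, hω1, one_pow]
    · rw [hω.card_nthRootsFinset, hSdef, Finset.card_image_of_injective _ hψinj,
        Finset.card_univ, ZMod.card]
  have hprod : ∏ ζ ∈ S, (X - C ζ) = (X ^ r - 1 : F[X]) := by
    rw [hS]
    exact (X_pow_sub_one_eq_prod hr.pos hω).symm
  have hD0 : ∀ e : Fin n → ZMod r,
      aeval (Matrix.diagonal (fun j => ω ^ (e j).val)) (∏ ζ ∈ S, (X - C ζ)) = 0 := by
    intro e
    rw [hprod]
    simp only [map_sub, map_pow, aeval_X, map_one]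
    rw [Matrix.diagonal_pow, sub_eq_zero, ← Matrix.diagonal_one]
    congr 1
    ext j
    simp only [Pi.pow_apply]
    rw [← pow_mul, mul_comm, pow_mul, hω1, one_pow]
  have hrk : ∀ (e : Fin n → ZMod r) (u : ZMod r),
      (Matrix.diagonal (fun j => ω ^ (e j).val) - ψ u • (1 : Matrix (Fin n) (Fin n) F)).rank +
        Nat.card {i // e i = u} = n := by
    intro e u
    have h1 := Diag.rank_diagonal_sub (fun j => ω ^ (e j).val) (ψ u)
    rw [Fintype.card_eq_nat_card] at h1
    have h2 : Nat.card {i // ω ^ (e i).val = ψ u} = Nat.card {i // e i = u} :=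
      Nat.card_congr (Equiv.subtypeEquivRight (fun i =>
        ⟨fun h => hψinj (by rw [hψ]; exact h), fun h => by rw [h, hψ]⟩))
    rw [h2] at h1
    exact h1
  apply Diag.similar_of_rank_eq _ _ S (hD0 a) (hD0 b)
  intro ζ hζ
  rw [hSdef] at hζ
  obtain ⟨u, -, rfl⟩ := Finset.mem_image.1 hζ
  have h1 := hrk a u
  have h2 := hrk b u
  have h3 := hab u
  omega

/-- **[14]** -/
theorem pSpecial : PMem.{u} → PSpecial.{u} := by
  intro _ F _ _ q₀ r _ hF ω hω hQ hcomb x hxSL hx hns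
  classical
  have hr : r.Prime := Fact.out
  have hω1 := hω.pow_eq_one
  have hω0 : ω ≠ 0 := hω.ne_zero hr.ne_zero
  have hq0 : q₀ ≠ 0 := by
    rintro rfl
    have : 1 < Fintype.card F := Fintype.one_lt_card
    rw [hF] at this
    simp at this
  rw [mem_SLn_iff] at hxSL
  obtain ⟨e, g₀, hg⟩ := exists_diag hω (x : Matrix (Fin r) (Fin r) F) hx
  have hgdet : (g₀ : Matrix (Fin r) (Fin r) F).det ≠ 0 :=
    ((Matrix.isUnit_iff_isUnit_det _).mp g₀.isUnit).ne_zero
  have hsum : ∑ j, e j = 0 := by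
    have h1 : (Matrix.diagonal (fun j => ω ^ (e j).val)).det = 1 := by
      have h2 := congrArg Matrix.det hg
      rw [Matrix.det_mul, Matrix.det_mul, hxSL, mul_one] at h2
      have h3 : (1 : F) * (g₀ : Matrix (Fin r) (Fin r) F).det =
          (Matrix.diagonal (fun j => ω ^ (e j).val)).det * (g₀ : Matrix (Fin r) (Fin r) F).det := by
        rw [one_mul]
        exact h2
      exact (mul_right_cancel₀ hgdet h3).symm
    rw [Matrix.det_diagonal, prod_psi hω1] at h1
    exact psi_inj hω (h1.trans psi_zero.symm)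
  obtain ⟨M, hMdef⟩ : ∃ M : ZMod r → ℕ, ∀ u, M u = Nat.card {j // e j = u} :=
    ⟨fun u => Nat.card {j // e j = u}, fun _ => rfl⟩
  have hMfilter : ∀ u, M u = (Finset.univ.filter (fun j => e j = u)).card := by
    intro u
    rw [hMdef, Nat.card_eq_fintype_card, Fintype.card_subtype]
  have hM1 : ∑ u, M u = r := by
    have h1 : ∑ u, M u = ∑ u : ZMod r, ∑ j ∈ Finset.univ.filter (fun j => e j = u), 1 := by
      apply Finset.sum_congr rfl
      intro u _
      rw [hMfilter, Finset.sum_const, smul_eq_mul, mul_one]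
    rw [h1, Finset.sum_fiberwise, Finset.sum_const, Finset.card_univ, Fintype.card_fin,
      smul_eq_mul, mul_one]
  have hM2 : ∑ u, (M u : ZMod r) * u = 0 := by
    rw [← hsum, ← Finset.sum_fiberwise Finset.univ e (fun j => e j)]
    apply Finset.sum_congr rfl
    intro u _
    rw [Finset.sum_congr rfl (fun j hj => (Finset.mem_filter.1 hj).2), Finset.sum_const,
      nsmul_eq_mul, hMfilter]
  have hM3 : ∀ u, M u ≠ r := by
    intro u hu
    have hall : ∀ j, e j = u := by
      by_contra hne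
      rw [not_forall] at hne
      obtain ⟨j, hj⟩ := hne
      have h1 : (Finset.univ.filter (fun j => e j = u)).card < (Finset.univ : Finset (Fin r)).card := by
        apply Finset.card_lt_card
        rw [Finset.ssubset_iff_of_subset (Finset.filter_subset _ _)]
        exact ⟨j, Finset.mem_univ _, fun h => hj (Finset.mem_filter.1 h).2⟩
      rw [← hMfilter, hu, Finset.card_univ, Fintype.card_fin] at h1
      exact lt_irrefl _ h1
    apply hns (ω ^ u.val)
    have hD : Matrix.diagonal (fun j => ω ^ (e j).val) =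
        ω ^ u.val • (1 : Matrix (Fin r) (Fin r) F) := by
      rw [Matrix.smul_one_eq_diagonal]
      congr 1
      ext j
      rw [hall j]
    rw [hD, Matrix.smul_mul, Matrix.one_mul] at hg
    have h2 : (x : Matrix (Fin r) (Fin r) F) = ((g₀⁻¹ : GL (Fin r) F) : Matrix (Fin r) (Fin r) F) *
        ((g₀ : Matrix (Fin r) (Fin r) F) * (x : Matrix (Fin r) (Fin r) F)) := by
      rw [← Matrix.mul_assoc, ← Units.val_mul, inv_mul_cancel, Units.val_one, Matrix.one_mul]
    rw [h2, hg, Matrix.mul_smul, ← Units.val_mul, inv_mul_cancel, Units.val_one]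
  obtain ⟨t, ht⟩ := hcomb M hM1 hM2 hM3
  -- the scalar `c₀ = ω ^ t` and the normalised diagonal matrix
  obtain ⟨c₀, hc₀def⟩ : ∃ c : F, c = ω ^ t.val := ⟨_, rfl⟩
  have hc₀ : c₀ ≠ 0 := by
    rw [hc₀def]
    exact pow_ne_zero _ hω0
  obtain ⟨d', hd'⟩ : ∃ d' : Fin r → F, ∀ j, d' j = ω ^ (e j - t).val := ⟨_, fun _ => rfl⟩
  obtain ⟨d'', hd''⟩ : ∃ d'' : Fin r → F, ∀ j, d'' j = ω ^ (t - e j).val := ⟨_, fun _ => rfl⟩
  have hdd : ∀ j, d' j * d'' j = 1 := by
    intro j
    rw [hd', hd'', ← psi_add hω1]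
    have : e j - t + (t - e j) = 0 := by ring
    rw [this, psi_zero]
  have hDD : Matrix.diagonal d' * Matrix.diagonal d'' = (1 : Matrix (Fin r) (Fin r) F) := by
    rw [Matrix.diagonal_mul_diagonal, ← Matrix.diagonal_one]
    congr 1
    ext j
    exact hdd j
  have hDD' : Matrix.diagonal d'' * Matrix.diagonal d' = (1 : Matrix (Fin r) (Fin r) F) := by
    rw [Matrix.diagonal_mul_diagonal, ← Matrix.diagonal_one]
    congr 1
    ext j
    rw [mul_comm]
    exact hdd j
  -- the unit `A` with matrix `diagonal d'`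
  obtain ⟨A, hA⟩ : ∃ A : GL (Fin r) F, (A : Matrix (Fin r) (Fin r) F) = Matrix.diagonal d' :=
    ⟨⟨Matrix.diagonal d', Matrix.diagonal d'', hDD, hDD'⟩, rfl⟩
  -- Wall's criterion
  have hpow : ∀ j, d' j ^ q₀ = d' j := by
    intro j
    rw [hd', ← psi_natCast_mul hω1, hQ, one_mul]
  have hW : IsConj (A : Matrix (Fin r) (Fin r) F)
      (((A : Matrix (Fin r) (Fin r) F).map (fun a : F => a ^ q₀)).transpose)⁻¹ := by
    have h1 : ((A : Matrix (Fin r) (Fin r) F).map (fun a : F => a ^ q₀)).transpose =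
        Matrix.diagonal d' := by
      rw [hA, Matrix.diagonal_map (by simp [hq0]), Matrix.diagonal_transpose]
      congr 1
      ext j
      exact hpow j
    rw [h1, Matrix.inv_eq_right_inv hDD, hA]
    have hfun1 : d' = fun j => ω ^ (e j - t).val := funext hd'
    have hfun2 : d'' = fun j => ω ^ (t - e j).val := funext hd''
    rw [hfun1, hfun2]
    obtain ⟨P, hP⟩ := diag_conj hω (fun j => e j - t) (fun j => t - e j) (by
      intro u
      have h1 : Nat.card {j // e j - t = u} = M (t + u) := by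
        rw [hMdef]
        exact Nat.card_congr (Equiv.subtypeEquivRight (fun j =>
          ⟨fun h => by rw [← h]; ring, fun h => by rw [h]; ring⟩))
      have h2 : Nat.card {j // t - e j = u} = M (t - u) := by
        rw [hMdef]
        exact Nat.card_congr (Equiv.subtypeEquivRight (fun j =>
          ⟨fun h => by rw [← h]; ring, fun h => by rw [h]; ring⟩))
      rw [h1, h2, ht u])
    exact ⟨P, hP⟩
  obtain ⟨B, hB⟩ := (Cfsg.Agent.S2588.result hF A).2 hW
  obtain ⟨c, hc⟩ := isConj_iff.1 hB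
  -- `g₀ x g₀⁻¹ = c₀ • A`
  have hgx : (g₀ : Matrix (Fin r) (Fin r) F) * (x : Matrix (Fin r) (Fin r) F) =
      (c₀ • (A : Matrix (Fin r) (Fin r) F)) * (g₀ : Matrix (Fin r) (Fin r) F) := by
    rw [hg, hA]
    congr 1
    rw [← Matrix.diagonal_smul]
    congr 1
    ext j
    rw [Pi.smul_apply, hd', psi_sub hω1, hc₀def, smul_eq_mul, mul_comm, mul_assoc,
      inv_mul_cancel₀ (pow_ne_zero _ hω0), mul_one]
  -- determinant correction
  have hrpos : 0 < r := hr.pos
  obtain ⟨j₀⟩ : Nonempty (Fin r) := ⟨⟨0, hrpos⟩⟩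
  obtain ⟨a, hadef⟩ : ∃ a : F, a = (g₀ : Matrix (Fin r) (Fin r) F).det *
      (c : Matrix (Fin r) (Fin r) F).det := ⟨_, rfl⟩
  have hcdet : (c : Matrix (Fin r) (Fin r) F).det ≠ 0 :=
    ((Matrix.isUnit_iff_isUnit_det _).mp c.isUnit).ne_zero
  have ha : a ≠ 0 := by
    rw [hadef]
    exact mul_ne_zero hgdet hcdet
  obtain ⟨δ, hδ⟩ : ∃ δ : GL (Fin r) F, (δ : Matrix (Fin r) (Fin r) F) =
      Matrix.diagonal (Function.update (fun _ => (1 : F)) j₀ a) := by
    refine ⟨⟨Matrix.diagonal (Function.update (fun _ => (1 : F)) j₀ a),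
      Matrix.diagonal (Function.update (fun _ => (1 : F)) j₀ a⁻¹), ?_, ?_⟩, rfl⟩
    · rw [Matrix.diagonal_mul_diagonal, ← Matrix.diagonal_one]
      congr 1
      ext j
      by_cases hj : j = j₀
      · subst hj
        simp [ha]
      · simp [Function.update_of_ne hj]
    · rw [Matrix.diagonal_mul_diagonal, ← Matrix.diagonal_one]
      congr 1
      ext j
      by_cases hj : j = j₀
      · subst hj
        simp [ha]
      · simp [Function.update_of_ne hj]
  have hδdet : (δ : Matrix (Fin r) (Fin r) F).det = a := by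
    rw [hδ, Matrix.det_diagonal, Finset.prod_eq_single j₀]
    · simp
    · intro j _ hj
      simp [Function.update_of_ne hj]
    · intro h
      exact absurd (Finset.mem_univ _) h
  have hδA : (δ : Matrix (Fin r) (Fin r) F) * (A : Matrix (Fin r) (Fin r) F) =
      (A : Matrix (Fin r) (Fin r) F) * (δ : Matrix (Fin r) (Fin r) F) := by
    rw [hδ, hA, Matrix.diagonal_mul_diagonal, Matrix.diagonal_mul_diagonal]
    congr 1
    ext j
    rw [mul_comm]
  -- the conjugating element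
  refine ⟨g₀⁻¹ * δ * c⁻¹, ?_, ?_⟩
  · rw [mem_SLn_iff, Units.val_mul, Units.val_mul, Matrix.det_mul, Matrix.det_mul, hδdet]
    have h1 : ((g₀⁻¹ : GL (Fin r) F) : Matrix (Fin r) (Fin r) F).det *
        (g₀ : Matrix (Fin r) (Fin r) F).det = 1 := by
      rw [← Matrix.det_mul, ← Units.val_mul, inv_mul_cancel, Units.val_one, Matrix.det_one]
    have h2 : (c : Matrix (Fin r) (Fin r) F).det *
        ((c⁻¹ : GL (Fin r) F) : Matrix (Fin r) (Fin r) F).det = 1 := by
      rw [← Matrix.det_mul, ← Units.val_mul, mul_inv_cancel, Units.val_one, Matrix.det_one]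
    rw [hadef]
    calc ((g₀⁻¹ : GL (Fin r) F) : Matrix (Fin r) (Fin r) F).det *
        ((g₀ : Matrix (Fin r) (Fin r) F).det * (c : Matrix (Fin r) (Fin r) F).det) *
        ((c⁻¹ : GL (Fin r) F) : Matrix (Fin r) (Fin r) F).det
        = (((g₀⁻¹ : GL (Fin r) F) : Matrix (Fin r) (Fin r) F).det *
            (g₀ : Matrix (Fin r) (Fin r) F).det) * ((c : Matrix (Fin r) (Fin r) F).det *
            ((c⁻¹ : GL (Fin r) F) : Matrix (Fin r) (Fin r) F).det) := by ring
      _ = 1 := by rw [h1, h2, one_mul]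
  · apply smul_mem_HU _ (B : GL (Fin r) F) B.2 c₀ hc₀
    -- `(g₀⁻¹ δ c⁻¹)⁻¹ x (g₀⁻¹ δ c⁻¹) = c δ⁻¹ (g₀ x g₀⁻¹) δ c⁻¹`
    have h1 : (g₀⁻¹ * δ * c⁻¹)⁻¹ * x * (g₀⁻¹ * δ * c⁻¹) =
        c * (δ⁻¹ * (g₀ * x * g₀⁻¹) * δ) * c⁻¹ := by group
    have h2 : ((g₀ * x * g₀⁻¹ : GL (Fin r) F) : Matrix (Fin r) (Fin r) F) =
        c₀ • (A : Matrix (Fin r) (Fin r) F) := by
      rw [Units.val_mul, Units.val_mul, hgx, Matrix.mul_assoc, ← Units.val_mul, mul_inv_cancel,
        Units.val_one, Matrix.mul_one]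
    have h3 : ((δ⁻¹ * (g₀ * x * g₀⁻¹) * δ : GL (Fin r) F) : Matrix (Fin r) (Fin r) F) =
        c₀ • (A : Matrix (Fin r) (Fin r) F) := by
      rw [Units.val_mul, Units.val_mul, h2]
      calc ((δ⁻¹ : GL (Fin r) F) : Matrix (Fin r) (Fin r) F) * c₀ • (A : Matrix (Fin r) (Fin r) F) *
          (δ : Matrix (Fin r) (Fin r) F)
          = c₀ • (((δ⁻¹ : GL (Fin r) F) : Matrix (Fin r) (Fin r) F) *
              ((A : Matrix (Fin r) (Fin r) F) * (δ : Matrix (Fin r) (Fin r) F))) := by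
            rw [Matrix.mul_smul, Matrix.smul_mul, Matrix.mul_assoc]
        _ = c₀ • (((δ⁻¹ : GL (Fin r) F) : Matrix (Fin r) (Fin r) F) *
              ((δ : Matrix (Fin r) (Fin r) F) * (A : Matrix (Fin r) (Fin r) F))) := by rw [hδA]
        _ = c₀ • (A : Matrix (Fin r) (Fin r) F) := by
            rw [← Matrix.mul_assoc, ← Units.val_mul, inv_mul_cancel, Units.val_one, Matrix.one_mul]
    rw [h1, Units.val_mul, Units.val_mul, h3, Matrix.mul_smul, Matrix.smul_mul, ← hc,
      Units.val_mul, Units.val_mul]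

end Cfsg.Agent.Lib.Helper66.USim
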